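import Cfsg.Agent.L0.CosetChain

/-! Generated coset table certificate. -/

set_option autoImplicit false
set_option maxRecDepth 100000

open Cfsg.Agent.L0

namespace Cfsg.Agent.H3.L34.Tc2

noncomputable def t0 : BT := .leaf (nat_lit 0x12e9ce8a0000000025d3c2354a8bac000000006a957621420c1000000000428400)

noncomputable def tree : BT := t0

noncomputable def row : ℕ → ℕ := rowOf tree (nat_lit 3) (nat_lit 7) (nat_lit 87) (nat_lit 0x7fffffffffffffffffffff)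

noncomputable def cols : List Col := [⟨nat_lit 10, nat_lit 1, [([nat_lit 66, nat_lit 17, nat_lit 59], nat_lit 0)]⟩,
  ⟨nat_lit 17, nat_lit 1, [([nat_lit 59, nat_lit 10, nat_lit 66], nat_lit 0), ([nat_lit 66, nat_lit 17, nat_lit 10, nat_lit 59], nat_lit 0)]⟩,
  ⟨nat_lit 59, nat_lit 0, [([nat_lit 66], nat_lit 0), ([nat_lit 59, nat_lit 59], nat_lit 0)]⟩,
  ⟨nat_lit 66, nat_lit 0, [([nat_lit 59], nat_lit 0)]⟩,
  ⟨nat_lit 73, nat_lit 1, [([nat_lit 66, nat_lit 80, nat_lit 59], nat_lit 0)]⟩,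
  ⟨nat_lit 80, nat_lit 1, [([nat_lit 59, nat_lit 73, nat_lit 66], nat_lit 0), ([nat_lit 66, nat_lit 80, nat_lit 73, nat_lit 59], nat_lit 0)]⟩]

noncomputable def erots : List (List ℕ × ℕ) := []

noncomputable def gens : List ℕ := [nat_lit 10, nat_lit 17, nat_lit 59, nat_lit 66, nat_lit 73, nat_lit 80]

noncomputable def chk : ℕ → Bool := chkRow0 row (nat_lit 3) (nat_lit 0x3) (nat_lit 0x1c) (nat_lit 5) (nat_lit 0x3) (nat_lit 0) (nat_lit 0x3) (nat_lit 2) (nat_lit 0x7f) (nat_lit 0x200) [] cols gens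

theorem b0 : allR chk 2 0 = true := by decide +kernel

noncomputable def T : CT := ⟨row, nat_lit 3, nat_lit 3, nat_lit 0x3, nat_lit 0x1c, nat_lit 5, nat_lit 0x3, nat_lit 0, nat_lit 0x3, nat_lit 2, nat_lit 0x7f, nat_lit 0x200, nat_lit 87, nat_lit 87, nat_lit 0, nat_lit 5, [], cols, erots, gens⟩

theorem all : ∀ c < 3, chk c = true := fun c hc =>
  allR_glue (d := 2) (n := 1) (forall_lt_succ' forall_lt_zero' b0) c (lt_of_lt_of_le hc (by norm_num))

/-- the relators used -/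
def R : List (List ℕ) := [[nat_lit 7, nat_lit 8],
  [nat_lit 7, nat_lit 9, nat_lit 8, nat_lit 10],
  [nat_lit 7, nat_lit 7, nat_lit 7],
  [nat_lit 7, nat_lit 0, nat_lit 8, nat_lit 1],
  [nat_lit 7, nat_lit 1, nat_lit 8, nat_lit 1, nat_lit 0],
  [nat_lit 7, nat_lit 10, nat_lit 8, nat_lit 10, nat_lit 9]]

theorem cert : Cert T (R.map fun r => (r, 0)) ([0, 1, 9, 10].map fun y => (y, 0)) 10 7 [0, 1, 7, 8, 9, 10] :=
  ⟨by decide +kernel, ⟨[[(3, 1)], [(3, 3), (4, 1)], [(0, 0), (2, 0)], [(0, 1)], [(1, 1)], [(1, 3), (5, 1)]], [], by decide +kernel⟩, by decide +kernel, Or.inl ⟨rfl, all⟩⟩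

theorem bound {Γ : Type*} [Group Γ] {x : ℕ → Γ} (hR : ∀ r ∈ R, ev x r = 1) {n : ℕ}
    (h : CardLe x [0, 1, 9, 10] n) : CardLe x [0, 1, 7, 8, 9, 10] (3 * n) :=
  cert.cardLe rfl hR h

end Cfsg.Agent.H3.L34.Tc2
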