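import Cfsg.Agent.H3.Mu.L34.Tab
import Cfsg.Agent.H3.Mu.L34.Tc3
import Cfsg.Agent.H3.Mu.L34.Tc2
import Cfsg.Agent.H3.Mu.L34.Tc1
import Cfsg.Agent.H3.Mu.L34.Tc0

/-! Order, base and presentation. -/

set_option autoImplicit false
set_option maxRecDepth 100000

open Cfsg.Agent.L0

namespace Cfsg.Agent.H3.L34


theorem cardLe : CardLe (PG.gen 11 R) (List.range 11) 20160 :=
  cardLe_cast (Tc0.bound (rel_sub (R := R) (fun _ => PG.rel) (by decide +kernel))
    (Tc1.bound (rel_sub (R := R) (fun _ => PG.rel) (by decide +kernel))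
    (Tc2.bound (rel_sub (R := R) (fun _ => PG.rel) (by decide +kernel))
    (Tc3.bound (rel_sub (R := R) (fun _ => PG.rel) (by decide +kernel))
    (cardLe_nil _))))) (by decide +kernel) (by decide +kernel)

theorem core {G : Type*} [Group G] {A : RAct G 21} {x : ℕ → G} (h : A.Tab x 11 T)
    (hb : A.IsBase Bf) (ht : genL x (List.range 11) = ⊤) : Core A x 11 T B R 20160 :=
  core_of h hb ht (by decide +kernel) (by decide +kernel) cardLe (chain h) (by decide +kernel)
    (by decide +kernel)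

theorem core' {G : Type*} [Group G] (h : Model G 21 3 T Bf) :
    ∃ (A : RAct G 21) (x : ℕ → G), Core A x 11 T B R 20160 := by
  obtain ⟨A, g, h1, h2, h3⟩ := h
  obtain ⟨x, -, a1, a2⟩ := ext h1
  exact ⟨A, x, core a1 h2 (a2.trans h3)⟩

end Cfsg.Agent.H3.L34
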