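import Cfsg.Agent.H3.Mu.L34.Core
import Cfsg.Agent.H3.Mu.L34.L0
import Cfsg.Agent.H3.Mu.L34.L1
import Cfsg.Agent.H3.Mu.L34.L2
import Cfsg.Agent.H3.Mu.L34.P2
import Cfsg.Agent.H3.Mu.L34.P3

/-! The Schur multiplier. -/

set_option autoImplicit false
set_option maxRecDepth 100000

open Cfsg.Agent.L0

namespace Cfsg.Agent.H3.L34


theorem schur {G : Type*} [Group G] (hm : Model G 21 3 T Bf) :
    Finite G ∧ Nat.card G = 20160 ∧ HasSchurMultiplier G (Multiplicative (ZMod 3 × ZMod 4 × ZMod 4)) := by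
  obtain ⟨A, x, h⟩ := core' hm
  haveI := h.fin
  have h2 := P2.pm h.base h.tab h.card
  have h3 := P3.pm h.base h.tab h.card
  have hr := pmult_rest h.card [] (by simp) (by decide +kernel) (by decide +kernel)
  exact ⟨h.fin, h.card, hasSchur_of (lower_three h.pres L0rep L1rep L2rep
    [(-4, 5), (410, 8), (-60, 10), (-4, 12), (60, 13), (-60, 14), (-720, 15), (-60, 17), (-60, 19), (411, 21), (-20, 22), (540, 23), (-300, 24), (68, 25), (10, 26), (4, 27), (2, 30), (2, 32)]
    [(1, 5), (131, 8), (-19, 10), (18, 13), (-19, 14), (-228, 15), (-19, 17), (-19, 19), (131, 21), (-6, 22), (170, 23), (-94, 24), (21, 25), (3, 26), (1, 27)]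
    [(-1, 1), (107, 8), (-15, 10), (15, 13), (-15, 14), (-184, 15), (-15, 17), (-16, 19), (1, 20), (107, 21), (-5, 22), (139, 23), (-77, 24), (15, 25), (3, 26)]
    (by decide +kernel) (by decide +kernel) (by decide +kernel) (by decide +kernel))
    (upper_three_two_two (k := 2) rfl h2 h3 hr)⟩

end Cfsg.Agent.H3.L34
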